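import Cfsg.Agent.Lib.Helper60.O10.U3a

set_option autoImplicit false

namespace Cfsg.Agent.Lib.Helper60.O10

open Cfsg Cfsg.Geo Matrix Cfsg.Agent.Lib.Helper13.Asch Cfsg.Agent.Lib.Helper90.Sp
  Cfsg.Agent.Lib.Helper57.OE Cfsg.Agent.Lib.Helper21.O10
open scoped Kronecker MatrixGroups commutatorElement

variable {ι : Type} [Fintype ι] [DecidableEq ι] {F : Type*} [Field F] {Q : (ι → F) → F}

theorem card_units_sub [Fintype F] [Nonempty ι] {r : ℕ} {K : Subalgebra F (Matrix ι ι F)}
    (hK : IsFieldSubalgebra r K) : Nat.card (K)ˣ = Fintype.card F ^ r - 1 := by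
  let _ := (isField_sub hK).toField
  have h1 : Nat.card K = Fintype.card F ^ r := by
    rw [Module.natCard_eq_pow_finrank (K := F), hK.finrank_eq, Nat.card_eq_fintype_card]
  rw [Nat.card_units, h1]

/-- a free action of a finite group on a finite set -/
theorem card_dvd_of_free {G β : Type*} [Group G] [MulAction G β] [Finite G] [Finite β]
    (hfree : ∀ (g : G) (b : β), g • b = b → g = 1) : Nat.card G ∣ Nat.card β := by
  classical
  have : Fintype G := Fintype.ofFinite G
  have : Fintype β := Fintype.ofFinite β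
  have : Fintype (Quotient (MulAction.orbitRel G β)) := Fintype.ofFinite _
  have h := MulAction.sum_card_fixedBy_eq_card_orbits_mul_card_group G β
  rw [Finset.sum_eq_single 1] at h
  · have h1 : Fintype.card (MulAction.fixedBy β (1 : G)) = Fintype.card β := by
      apply Fintype.card_congr
      exact Equiv.subtypeUnivEquiv (fun b => by simp [MulAction.mem_fixedBy])
    rw [h1] at h
    rw [Nat.card_eq_fintype_card, Nat.card_eq_fintype_card, h]
    exact Dvd.intro_left _ rfl
  · intro g _ hg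
    rw [Fintype.card_eq_zero_iff]
    constructor
    rintro ⟨b, hb⟩
    exact hg (hfree g b hb)
  · intro h1
    exact absurd (Finset.mem_univ _) h1

theorem dvd_card_singular [Fintype F] (hQ : IsNondegenerateQuadraticForm Q)
    (K : Subalgebra F (Matrix ι ι F)) (hK : IsFieldSubalgebra 2 K)
    (hsim : ∀ k ∈ K, ∃ c : F, ∀ v, Q (k *ᵥ v) = c * Q v) :
    Fintype.card F ^ 2 - 1 ∣ Nat.card {v : ι → F // Q v = 0} - 1 := by
  rcases isEmpty_or_nonempty ι with hι | hι
  · exfalso
    have h1 := hK.finrank_eq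
    have : Subsingleton K := ⟨fun a b => Subtype.ext (Subsingleton.elim _ _)⟩
    rw [Module.finrank_zero_of_subsingleton] at h1
    omega
  have hQ0 : Q 0 = 0 := Q_zero hQ
  let S : Set (ι → F) := {v | Q v = 0}
  have h0S : (0 : ι → F) ∈ S := hQ0
  have hcardS : Nat.card {v : ι → F // Q v = 0} - 1 = Nat.card ↥(S \ {0}) := by
    rw [Nat.card_coe_set_eq, Set.ncard_sdiff_singleton_of_mem h0S, ← Nat.card_coe_set_eq]
    rfl
  rw [hcardS, ← card_units_sub hK]
  have hinvl : ∀ u : (K)ˣ, ((u⁻¹ : (K)ˣ) : K).1 * (u : K).1 = 1 := by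
    intro u
    have : ((u⁻¹ : (K)ˣ) : K) * (u : K) = 1 := by rw [← Units.val_mul, inv_mul_cancel, Units.val_one]
    exact congrArg Subtype.val this
  let act : MulAction (K)ˣ ↥(S \ {0}) :=
    { smul := fun u v => ⟨(u : K).1 *ᵥ v.1, by
        constructor
        · obtain ⟨c, hc⟩ := hsim (u : K).1 (u : K).2
          change Q _ = 0
          rw [hc, (v.2.1 : Q v.1 = 0), mul_zero]
        · intro h
          have h1 : (u : K).1 *ᵥ v.1 = 0 := h
          apply v.2.2
          change v.1 = 0
          calc v.1 = (((u⁻¹ : (K)ˣ) : K).1 * (u : K).1) *ᵥ v.1 := by rw [hinvl, Matrix.one_mulVec]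
            _ = 0 := by rw [← Matrix.mulVec_mulVec, h1, Matrix.mulVec_zero]⟩
      one_smul := by
        intro v
        apply Subtype.ext
        change ((1 : (K)ˣ) : K).1 *ᵥ v.1 = v.1
        simp
      mul_smul := by
        intro a b v
        apply Subtype.ext
        change ((a * b : (K)ˣ) : K).1 *ᵥ v.1 = (a : K).1 *ᵥ ((b : K).1 *ᵥ v.1)
        rw [Matrix.mulVec_mulVec]
        rfl }
  apply card_dvd_of_free
  intro u v huv
  by_contra hne
  have h1 : (u : K).1 *ᵥ v.1 = v.1 := congrArg Subtype.val huv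
  have hx : (u : K).1 - 1 ≠ 0 := by
    intro h
    apply hne
    apply Units.ext
    apply Subtype.ext
    exact sub_eq_zero.mp h
  obtain ⟨y, hy, hxy⟩ := hK.inv _ (K.sub_mem (u : K).2 K.one_mem) hx
  have hyx : y * ((u : K).1 - 1) = 1 := by
    rw [hK.comm _ hy _ (K.sub_mem (u : K).2 K.one_mem)]; exact hxy
  apply v.2.2
  change v.1 = 0
  calc v.1 = (y * ((u : K).1 - 1)) *ᵥ v.1 := by rw [hyx, Matrix.one_mulVec]
    _ = 0 := by
      rw [← Matrix.mulVec_mulVec, Matrix.sub_mulVec, h1, Matrix.one_mulVec, sub_self,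
        Matrix.mulVec_zero]

end Cfsg.Agent.Lib.Helper60.O10
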