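import Cfsg.Agent.Lib.Helper21.O10.Defs
import Cfsg.Agent.Lib.Helper57.OE.Base

set_option autoImplicit false

namespace Cfsg.Agent.Lib.Helper60.O10

open Cfsg Cfsg.Geo Matrix Cfsg.Agent.Lib.Helper13.Asch Cfsg.Agent.Lib.Helper90.Sp
  Cfsg.Agent.Lib.Helper57.OE Cfsg.Agent.Lib.Helper21.O10
open scoped Kronecker MatrixGroups commutatorElement

variable {ι : Type} [Fintype ι] [DecidableEq ι] {F : Type*} [Field F] {Q : (ι → F) → F}

/-- the self-adjoint elements of `K` -/
def saSub {f : (ι → F) → (ι → F) → F} (hf : IsSymmetricForm f) (K : Subalgebra F (Matrix ι ι F)) :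
    Submodule F (Matrix ι ι F) where
  carrier := {x | x ∈ K ∧ ∀ u v, f (x *ᵥ u) v = f u (x *ᵥ v)}
  add_mem' := by
    rintro a b ⟨ha, ha'⟩ ⟨hb, hb'⟩
    refine ⟨K.add_mem ha hb, fun u v => ?_⟩
    rw [Matrix.add_mulVec, Matrix.add_mulVec, hf.bilinear.add_left, hf.bilinear.add_right, ha', hb']
  zero_mem' := by
    refine ⟨K.zero_mem, fun u v => ?_⟩
    have h1 := hf.bilinear.smul_left 0 u v
    have h2 := hf.bilinear.smul_right 0 u v
    rw [zero_smul, zero_mul] at h1 h2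
    rw [Matrix.zero_mulVec, Matrix.zero_mulVec, h1, h2]
  smul_mem' := by
    rintro c a ⟨ha, ha'⟩
    refine ⟨K.smul_mem ha c, fun u v => ?_⟩
    rw [Matrix.smul_mulVec, Matrix.smul_mulVec, hf.bilinear.smul_left, hf.bilinear.smul_right, ha']

theorem saSub_scalar {f : (ι → F) → (ι → F) → F} (hf : IsSymmetricForm f)
    (K : Subalgebra F (Matrix ι ι F)) (hK : IsFieldSubalgebra 2 K)
    (hns : ¬ IsSelfAdjointFor f K) {x : Matrix ι ι F} (hx : x ∈ saSub hf K) :
    ∃ c : F, x = c • 1 := by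
  rcases isEmpty_or_nonempty ι with hι | hι
  · exact ⟨0, Subsingleton.elim _ _⟩
  have hle : saSub hf K ≤ Subalgebra.toSubmodule K := fun y hy => hy.1
  have hne : saSub hf K ≠ Subalgebra.toSubmodule K := by
    intro h
    apply hns
    intro k hk u v
    have : k ∈ saSub hf K := by rw [h]; exact hk
    exact this.2 u v
  have hlt : saSub hf K < Subalgebra.toSubmodule K := lt_of_le_of_ne hle hne
  have h1 : Module.finrank F (saSub hf K) < 2 := by
    have := Submodule.finrank_lt_finrank_of_lt hlt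
    rwa [Subalgebra.finrank_toSubmodule, hK.finrank_eq] at this
  have hone : (1 : Matrix ι ι F) ∈ saSub hf K :=
    ⟨K.one_mem, fun u v => by rw [Matrix.one_mulVec, Matrix.one_mulVec]⟩
  have hnz : (⟨1, hone⟩ : saSub hf K) ≠ 0 := by
    intro h
    exact one_ne_zero (congrArg Subtype.val h)
  have h2 : 0 < Module.finrank F (saSub hf K) := by
    rw [Module.finrank_pos_iff_exists_ne_zero]
    exact ⟨_, hnz⟩
  have h3 : Module.finrank F (saSub hf K) = 1 := by omega
  obtain ⟨c, hc⟩ := (finrank_eq_one_iff_of_nonzero' (⟨1, hone⟩ : saSub hf K) hnz).mp h3 ⟨x, hx⟩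
  exact ⟨c, (congrArg Subtype.val hc).symm⟩

theorem norm_trace_of_unitary {f : (ι → F) → (ι → F) → F} (hf : IsSymmetricForm f)
    (K : Subalgebra F (Matrix ι ι F)) (hK : IsFieldSubalgebra 2 K) (hadj : IsAdjointClosedFor f K)
    (hns : ¬ IsSelfAdjointFor f K) (k k' : Matrix ι ι F) (hk : k ∈ K) (hk' : k' ∈ K)
    (h : ∀ u v, f (k *ᵥ u) v = f u (k' *ᵥ v)) :
    (∃ c : F, k' * k = c • 1) ∧ ∃ t : F, k + k' = t • 1 := by
  have h' : ∀ u v, f (k' *ᵥ u) v = f u (k *ᵥ v) := by
    intro u v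
    rw [hf.symm, ← h, hf.symm]
  constructor
  · apply saSub_scalar hf K hK hns
    refine ⟨K.mul_mem hk' hk, fun u v => ?_⟩
    rw [← Matrix.mulVec_mulVec, ← Matrix.mulVec_mulVec, h', h]
  · apply saSub_scalar hf K hK hns
    refine ⟨K.add_mem hk hk', fun u v => ?_⟩
    rw [Matrix.add_mulVec, Matrix.add_mulVec, hf.bilinear.add_left, hf.bilinear.add_right, h, h',
      add_comm]

end Cfsg.Agent.Lib.Helper60.O10
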