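import Cfsg.Agent.Lib.Helper21.O10.Defs
import Cfsg.Agent.Lib.Helper57.OE.Base

set_option autoImplicit false

namespace Cfsg.Agent.Lib.Helper60.O10

open Cfsg Cfsg.Geo Matrix Cfsg.Agent.Lib.Helper13.Asch Cfsg.Agent.Lib.Helper90.Sp
  Cfsg.Agent.Lib.Helper57.OE Cfsg.Agent.Lib.Helper21.O10
open scoped Kronecker MatrixGroups commutatorElement

variable {ι : Type} [Fintype ι] [DecidableEq ι] {F : Type*} [Field F] {Q : (ι → F) → F}

theorem sq_injective_two (h2 : (2 : F) = 0) : Function.Injective (fun a : F => a ^ 2) := by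
  intro a b hab
  have hab' : a ^ 2 = b ^ 2 := hab
  have h : (a - b) ^ 2 = 0 := by linear_combination hab' + (b ^ 2 - a * b) * h2
  exact sub_eq_zero.mp (pow_eq_zero_iff (two_ne_zero) |>.mp h)

theorem finrank_ker_semilinear [Fintype F] (h2 : (2 : F) = 0) (D : (ι → F) → F)
    (hadd : ∀ u v, D (u + v) = D u + D v) (hsm : ∀ (a : F) v, D (a • v) = a ^ 2 * D v) :
    ∃ W : Submodule F (ι → F), (∀ v, v ∈ W ↔ D v = 0) ∧
      Fintype.card ι ≤ Module.finrank F W + 1 := by
  have hinj := sq_injective_two h2
  have hsurj : Function.Surjective (fun a : F => a ^ 2) := Finite.injective_iff_surjective.mp hinj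
  choose s hs using hsurj
  have hs' : ∀ a, (s a) ^ 2 = a := hs
  let φ : (ι → F) →ₗ[F] F :=
    { toFun := fun v => s (D v)
      map_add' := by
        intro u v
        apply hinj
        change (s (D (u + v))) ^ 2 = (s (D u) + s (D v)) ^ 2
        rw [hs', hadd]
        linear_combination -(hs' (D u)) - (hs' (D v)) - (s (D u) * s (D v)) * h2
      map_smul' := by
        intro a v
        apply hinj
        change (s (D (a • v))) ^ 2 = (a • s (D v)) ^ 2
        rw [hs', hsm, smul_eq_mul, mul_pow, hs'] }
  refine ⟨LinearMap.ker φ, ?_, ?_⟩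
  · intro v
    rw [LinearMap.mem_ker]
    change s (D v) = 0 ↔ D v = 0
    constructor
    · intro h
      rw [← hs' (D v), h]; norm_num
    · intro h
      have := hs' (D v)
      rw [h] at this
      rw [h]
      exact pow_eq_zero_iff (two_ne_zero) |>.mp this
  · have h1 := LinearMap.finrank_range_add_finrank_ker φ
    rw [Module.finrank_fintype_fun_eq_card] at h1
    have h3 : Module.finrank F (LinearMap.range φ) ≤ 1 := by
      have := Submodule.finrank_le (LinearMap.range φ)
      rwa [Module.finrank_self] at this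
    omega

end Cfsg.Agent.Lib.Helper60.O10
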