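import Cfsg.Agent.Lib.Helper60.O10.U3a
import Cfsg.Agent.Lib.Helper60.O10.U2a
import Cfsg.Agent.Lib.Helper60.O10.U2b

set_option autoImplicit false

namespace Cfsg.Agent.Lib.Helper60.O10

open Cfsg Cfsg.Geo Matrix Cfsg.Agent.Lib.Helper13.Asch Cfsg.Agent.Lib.Helper90.Sp
  Cfsg.Agent.Lib.Helper57.OE Cfsg.Agent.Lib.Helper21.O10
open scoped Kronecker MatrixGroups commutatorElement

variable {ι : Type} [Fintype ι] [DecidableEq ι] {F : Type*} [Field F] {Q : (ι → F) → F}

/-- a conjugate of `k` inside the quadratic field `K` is `k` or its conjugate `k'` -/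
theorem conj_mem_pair [Nonempty ι] {r : ℕ} (K : Subalgebra F (Matrix ι ι F))
    (hK : IsFieldSubalgebra r K)
    {k k' : Matrix ι ι F} (hk : k ∈ K) (hk' : k' ∈ K) {t c : F} (ht : k + k' = t • 1)
    (hc : k' * k = c • 1) {A B : Matrix ι ι F} (hAB : A * B = 1)
    (hk1 : B * k * A ∈ K) : B * k * A = k ∨ B * k * A = k' := by
  let _ := (isField_sub hK).toField
  have hpoly : k * k - t • k + c • 1 = 0 := by
    have h1 : t • k = k * k + c • 1 := by
      calc t • k = (t • (1 : Matrix ι ι F)) * k := by rw [smul_mul_assoc, one_mul]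
        _ = k * k + c • 1 := by rw [← ht, add_mul, hc]
    rw [h1]; abel
  have hpoly1 : (B * k * A) * (B * k * A) - t • (B * k * A) + c • 1 = B * (k * k - t • k + c • 1) * A
      + c • (1 - B * A) := by
    have h2 : (B * k * A) * (B * k * A) = B * (k * k) * A := by
      calc (B * k * A) * (B * k * A) = B * k * (A * B) * k * A := by simp only [mul_assoc]
        _ = B * (k * k) * A := by rw [hAB, mul_one]; simp only [mul_assoc]
    rw [h2]
    simp only [mul_add, mul_sub, add_mul, sub_mul, mul_smul_comm, smul_mul_assoc, mul_one, smul_sub]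
    abel
  have hBA : B * A = 1 := mul_eq_one_comm.mp hAB
  rw [hpoly, hBA, mul_zero, zero_mul, sub_self, smul_zero, add_zero] at hpoly1
  set X : K := ⟨B * k * A, hk1⟩ with hX
  set Y : K := ⟨k, hk⟩ with hY
  set Y' : K := ⟨k', hk'⟩ with hY'
  set T : K := algebraMap F K t with hT
  set C : K := algebraMap F K c with hC
  have hTval : (T : Matrix ι ι F) = t • 1 := by
    rw [hT, Subalgebra.coe_algebraMap, Algebra.algebraMap_eq_smul_one]
  have hCval : (C : Matrix ι ι F) = c • 1 := by
    rw [hC, Subalgebra.coe_algebraMap, Algebra.algebraMap_eq_smul_one]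
  have e1 : Y + Y' = T := Subtype.ext (by rw [hTval]; exact ht)
  have e2 : Y' * Y = C := Subtype.ext (by rw [hCval]; exact hc)
  have e3 : X * X - T * X + C = 0 := Subtype.ext (by
    change (B * k * A) * (B * k * A) - (T : Matrix ι ι F) * (B * k * A) + (C : Matrix ι ι F) = 0
    rw [hTval, hCval, smul_mul_assoc, one_mul]
    exact hpoly1)
  have h0 : (X - Y) * (X - Y') = 0 := by linear_combination e3 - X * e1 + e2
  rcases mul_eq_zero.mp h0 with h | h
  · left; exact congrArg Subtype.val (sub_eq_zero.mp h)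
  · right; exact congrArg Subtype.val (sub_eq_zero.mp h)

theorem similitude_of_unitary [Fintype F] (hQ : IsNondegenerateQuadraticForm Q)
    (hι : 3 ≤ Fintype.card ι) {H : Subgroup (GL ι F)} (hH : FixesQuadForm (matrixSet H) Q)
    (hirr : ActsIrreducibly (matrixSet H)) (K : Subalgebra F (Matrix ι ι F))
    (hK : IsFieldSubalgebra 2 K) (hadj : IsAdjointClosedFor (QuadraticMap.polar Q) K)
    (hns : ¬ IsSelfAdjointFor (QuadraticMap.polar Q) K) (hHK : H ≤ subalgebraNormalizer K) :
    ∀ k ∈ K, ∃ c : F, ∀ v, Q (k *ᵥ v) = c * Q v := by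
  have hne : Nonempty ι := by
    rw [← Fintype.card_pos_iff]; omega
  have hf := polar_symmForm hQ
  intro k hk
  obtain ⟨k', hk', hkk'⟩ := hadj k hk
  obtain ⟨⟨c, hc⟩, ⟨t, ht⟩⟩ := norm_trace_of_unitary hf K hK hadj hns k k' hk hk' hkk'
  have hk'k : ∀ u v, QuadraticMap.polar Q (k' *ᵥ u) v = QuadraticMap.polar Q u (k *ᵥ v) := by
    intro u v
    rw [hf.symm, ← hkk', hf.symm]
  have hc' : k * k' = c • 1 := by rw [hK.comm _ hk _ hk']; exact hc
  have ht' : k' + k = t • 1 := by rw [add_comm]; exact ht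
  refine ⟨c, ?_⟩
  -- polar identities
  have hpol : ∀ u v, QuadraticMap.polar Q (k *ᵥ u) (k *ᵥ v) = c * QuadraticMap.polar Q u v := by
    intro u v
    rw [hkk', Matrix.mulVec_mulVec, hc, Matrix.smul_mulVec, Matrix.one_mulVec,
      hf.bilinear.smul_right]
  have hpol' : ∀ u v, QuadraticMap.polar Q (k' *ᵥ u) (k' *ᵥ v) = c * QuadraticMap.polar Q u v := by
    intro u v
    rw [hk'k, Matrix.mulVec_mulVec, hc', Matrix.smul_mulVec, Matrix.one_mulVec,
      hf.bilinear.smul_right]
  by_cases h2 : (2 : F) = 0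
  · -- characteristic 2
    have hsemi : ∀ x : Matrix ι ι F,
        (∀ u v, QuadraticMap.polar Q (x *ᵥ u) (x *ᵥ v) = c * QuadraticMap.polar Q u v) →
        ∃ W : Submodule F (ι → F), (∀ v, v ∈ W ↔ Q (x *ᵥ v) - c * Q v = 0) ∧
          Fintype.card ι ≤ Module.finrank F W + 1 := by
      intro x hx
      apply finrank_ker_semilinear h2 (fun v => Q (x *ᵥ v) - c * Q v)
      · intro u v
        rw [Matrix.mulVec_add, Q_add Q (x *ᵥ u) (x *ᵥ v), Q_add Q u v, hx]
        ring
      · intro a v
        rw [Matrix.mulVec_smul, hQ.smul, hQ.smul]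
        ring
    obtain ⟨W1, hW1, hd1⟩ := hsemi k hpol
    obtain ⟨W2, hW2, hd2⟩ := hsemi k' hpol'
    have hinv : ∀ s ∈ matrixSet H, (W1 ⊓ W2).map (Matrix.toLin' s) ≤ W1 ⊓ W2 := by
      rintro _ ⟨h, hh, rfl⟩
      rintro _ ⟨v, hv, rfl⟩
      have hv1 := (hW1 v).1 hv.1
      have hv2 := (hW2 v).1 hv.2
      simp only
      rw [Matrix.toLin'_apply]
      set A : Matrix ι ι F := (h : Matrix ι ι F) with hA
      set B : Matrix ι ι F := ((h⁻¹ : GL ι F) : Matrix ι ι F) with hB
      have hAB : A * B = 1 := by rw [hA, hB, ← Units.val_mul, mul_inv_cancel, Units.val_one]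
      have hnorm : ∀ x ∈ K, B * x * A ∈ K := by
        intro x hx
        have := (hHK (H.inv_mem hh) x).1 hx
        rwa [inv_inv] at this
      have hQA : ∀ w, Q (A *ᵥ w) = Q w := fun w => hH A ⟨h, hh, rfl⟩ w
      have hmove : ∀ x : Matrix ι ι F, x *ᵥ (A *ᵥ v) = A *ᵥ ((B * x * A) *ᵥ v) := by
        intro x
        rw [Matrix.mulVec_mulVec, Matrix.mulVec_mulVec]
        congr 1
        calc x * A = (A * B) * x * A := by rw [hAB, one_mul]
          _ = A * (B * x * A) := by simp only [mul_assoc]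
      constructor
      · change A *ᵥ v ∈ W1
        rw [hW1, hmove, hQA, hQA]
        rcases conj_mem_pair K hK hk hk' ht hc hAB (hnorm k hk) with h | h
        · rw [h]; exact hv1
        · rw [h]; exact hv2
      · change A *ᵥ v ∈ W2
        rw [hW2, hmove, hQA, hQA]
        rcases conj_mem_pair K hK hk' hk ht' hc' hAB (hnorm k' hk') with h | h
        · rw [h]; exact hv2
        · rw [h]; exact hv1
    have hdim : 0 < Module.finrank F (W1 ⊓ W2 : Submodule F (ι → F)) := by
      have h1 := Submodule.finrank_sup_add_finrank_inf_eq W1 W2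
      have h3 := Submodule.finrank_le (W1 ⊔ W2)
      rw [Module.finrank_fintype_fun_eq_card] at h3
      omega
    rcases hirr (W1 ⊓ W2) hinv with h | h
    · rw [h, finrank_bot] at hdim
      omega
    · intro v
      have hv : v ∈ W1 ⊓ W2 := by rw [h]; trivial
      have := (hW1 v).1 hv.1
      linear_combination this
  · intro v
    have h1 := two_mul_Q hQ (k *ᵥ v)
    have h3 := two_mul_Q hQ v
    rw [hpol] at h1
    apply mul_left_cancel₀ h2
    rw [h1, ← h3]; ring

end Cfsg.Agent.Lib.Helper60.O10
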