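import Cfsg.Agent.Lib.Helper60.O10.U3a
import Cfsg.Agent.Lib.Helper60.O10.U2b
import Cfsg.Agent.Lib.Helper51.OE.FBase

set_option autoImplicit false

namespace Cfsg.Agent.Lib.Helper60.O10

open Cfsg Cfsg.Geo Matrix Cfsg.Agent.Lib.Helper13.Asch Cfsg.Agent.Lib.Helper90.Sp
  Cfsg.Agent.Lib.Helper57.OE Cfsg.Agent.Lib.Helper21.O10
open scoped Kronecker MatrixGroups commutatorElement

variable {ι : Type} [Fintype ι] [DecidableEq ι] {F : Type*} [Field F] {Q : (ι → F) → F}

theorem exists_sqrt_sub [Fintype F] [Nonempty ι] (h2 : (2 : F) = 0) {r : ℕ}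
    {K : Subalgebra F (Matrix ι ι F)} (hK : IsFieldSubalgebra r K) {k : Matrix ι ι F}
    (hk : k ∈ K) : ∃ x ∈ K, x * x = k := by
  let _ := (isField_sub hK).toField
  have h2K : (2 : K) = 0 := by
    have : (algebraMap F K) 2 = 0 := by rw [h2, map_zero]
    rwa [map_ofNat] at this
  have hinj := sq_injective_two h2K
  have hsurj := Finite.injective_iff_surjective.mp hinj
  obtain ⟨x, hx⟩ := hsurj ⟨k, hk⟩
  refine ⟨x.1, x.2, ?_⟩
  have := congrArg Subtype.val hx
  rw [← pow_two]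
  exact this

/-- evaluation at `w` -/
def evAt (w : ι → F) : Matrix ι ι F →ₗ[F] (ι → F) where
  toFun := fun k => k *ᵥ w
  map_add' := fun a b => Matrix.add_mulVec a b w
  map_smul' := fun c a => Matrix.smul_mulVec c a w

theorem no_selfadjoint_even [Fintype F] (h2 : (2 : F) = 0) (hQ : IsNondegenerateQuadraticForm Q)
    {m : ℕ} (hm : Odd m) (hι : Fintype.card ι = 2 * m) (K : Subalgebra F (Matrix ι ι F))
    (hK : IsFieldSubalgebra 2 K) (hsa : IsSelfAdjointFor (QuadraticMap.polar Q) K) : False := by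
  have hne : Nonempty ι := by
    rw [← Fintype.card_pos_iff, hι]
    obtain ⟨j, rfl⟩ := hm
    omega
  have hf := polar_symmForm hQ
  have falt : ∀ v, QuadraticMap.polar Q v v = 0 := by
    intro v
    rw [← two_mul_Q hQ, h2, zero_mul]
  have hkw : ∀ k ∈ K, ∀ w, QuadraticMap.polar Q (k *ᵥ w) w = 0 := by
    intro k hk w
    obtain ⟨x, hx, rfl⟩ := exists_sqrt_sub h2 hK hk
    rw [← Matrix.mulVec_mulVec, hsa x hx, falt]
  have hkl : ∀ k ∈ K, ∀ l ∈ K, ∀ w, QuadraticMap.polar Q (k *ᵥ w) (l *ᵥ w) = 0 := by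
    intro k hk l hl w
    rw [← hsa l hl, Matrix.mulVec_mulVec]
    exact hkw _ (K.mul_mem hl hk) w
  let P : Submodule F (ι → F) → Prop := fun M =>
    (∀ k ∈ K, ∀ x ∈ M, k *ᵥ x ∈ M) ∧ (∀ x ∈ M, ∀ y ∈ M, QuadraticMap.polar Q x y = 0)
  have hbot : P ⊥ := by
    constructor
    · intro k _ x hx
      rw [Submodule.mem_bot] at hx ⊢
      rw [hx, Matrix.mulVec_zero]
    · intro x hx y _
      rw [Submodule.mem_bot] at hx
      rw [hx]
      have := hf.bilinear.smul_left 0 0 y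
      simpa using this
  obtain ⟨M, hM, hmax⟩ := (wellFounded_gt : WellFounded
    ((· > ·) : Submodule F (ι → F) → Submodule F (ι → F) → Prop)).has_min {M | P M} ⟨⊥, hbot⟩
  have hMP : P M := hM
  have hperp : Cfsg.Agent.Lib.Helper51.OE.perp hQ M ≤ M := by
    intro w hw
    by_contra hwM
    rw [Cfsg.Agent.Lib.Helper51.OE.mem_perp'] at hw
    let Kw : Submodule F (ι → F) := (Subalgebra.toSubmodule K).map (evAt w)
    have hKw : ∀ z ∈ Kw, ∃ k ∈ K, z = k *ᵥ w := by
      rintro _ ⟨k, hk, rfl⟩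
      exact ⟨k, hk, rfl⟩
    have hwKw : w ∈ Kw := ⟨1, K.one_mem, Matrix.one_mulVec w⟩
    have hP' : P (M ⊔ Kw) := by
      constructor
      · intro l hl z hz
        obtain ⟨x, hx, y, hy, rfl⟩ := Submodule.mem_sup.1 hz
        obtain ⟨k, hk, rfl⟩ := hKw y hy
        rw [Matrix.mulVec_add]
        apply Submodule.add_mem
        · exact Submodule.mem_sup_left (hMP.1 l hl x hx)
        · apply Submodule.mem_sup_right
          rw [Matrix.mulVec_mulVec]
          exact ⟨l * k, K.mul_mem hl hk, rfl⟩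
      · intro z hz z' hz'
        obtain ⟨x, hx, y, hy, rfl⟩ := Submodule.mem_sup.1 hz
        obtain ⟨x', hx', y', hy', rfl⟩ := Submodule.mem_sup.1 hz'
        obtain ⟨k, hk, rfl⟩ := hKw y hy
        obtain ⟨l, hl, rfl⟩ := hKw y' hy'
        rw [hf.bilinear.add_left, hf.bilinear.add_right, hf.bilinear.add_right, hMP.2 x hx x' hx',
          hkl k hk l hl, ← hsa l hl, hf.symm (l *ᵥ x) w, hw _ (hMP.1 l hl x hx), hsa k hk,
          hw _ (hMP.1 k hk x' hx')]
        ring
    apply hmax (M ⊔ Kw) hP'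
    apply lt_of_le_of_ne le_sup_left
    intro h
    apply hwM
    rw [h]
    exact Submodule.mem_sup_right hwKw
  have hle : M ≤ Cfsg.Agent.Lib.Helper51.OE.perp hQ M := by
    intro x hx
    rw [Cfsg.Agent.Lib.Helper51.OE.mem_perp']
    intro y hy
    exact hMP.2 x hx y hy
  have heq : Cfsg.Agent.Lib.Helper51.OE.perp hQ M = M := le_antisymm hperp hle
  have hdim := Cfsg.Agent.Lib.Helper51.OE.finrank_perp hQ M
  rw [heq, hι] at hdim
  have hdvd := dvd_finrank_of_invariant K hK M hMP.1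
  have hMm : Module.finrank F M = m := by omega
  rw [hMm] at hdvd
  obtain ⟨j, rfl⟩ := hm
  omega

end Cfsg.Agent.Lib.Helper60.O10
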