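import Cfsg.Agent.Lib.Helper21.O10.Defs
import Cfsg.Agent.Lib.Helper57.OE.Base

set_option autoImplicit false

namespace Cfsg.Agent.Lib.Helper60.O10

open Cfsg Cfsg.Geo Matrix Cfsg.Agent.Lib.Helper13.Asch Cfsg.Agent.Lib.Helper90.Sp
  Cfsg.Agent.Lib.Helper57.OE Cfsg.Agent.Lib.Helper21.O10
open scoped Kronecker MatrixGroups commutatorElement

variable {ι : Type} [Fintype ι] [DecidableEq ι] {F : Type*} [Field F] {Q : (ι → F) → F}

theorem isField_sub [Nonempty ι] {r : ℕ} {K : Subalgebra F (Matrix ι ι F)}
    (hK : IsFieldSubalgebra r K) : IsField K where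
  exists_pair_ne := ⟨0, 1, fun h => zero_ne_one (congrArg Subtype.val h)⟩
  mul_comm := fun a b => Subtype.ext (hK.comm _ a.2 _ b.2)
  mul_inv_cancel := fun {a} ha => by
    obtain ⟨y, hy, hxy⟩ := hK.inv a a.2 (fun h => ha (Subtype.ext h))
    exact ⟨⟨y, hy⟩, Subtype.ext hxy⟩

theorem dvd_finrank_of_invariant {r : ℕ} (K : Subalgebra F (Matrix ι ι F))
    (hK : IsFieldSubalgebra r K) (W : Submodule F (ι → F))
    (hW : ∀ k ∈ K, ∀ x ∈ W, k *ᵥ x ∈ W) : r ∣ Module.finrank F W := by
  rcases isEmpty_or_nonempty ι with hι | hι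
  · have : Module.finrank F W = 0 := by
      have h1 := Submodule.finrank_le W
      rw [Module.finrank_fintype_fun_eq_card, Fintype.card_eq_zero] at h1
      omega
    rw [this]
    exact dvd_zero r
  let instF : Field ↥K := (isField_sub hK).toField
  let φ : ↥K →+* Module.End F W :=
    { toFun := fun k => LinearMap.restrict (Matrix.toLin' k.1) (fun x hx => by
        rw [Matrix.toLin'_apply]; exact hW k.1 k.2 x hx)
      map_one' := by
        ext x
        simp
      map_mul' := by
        intro a b
        ext x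
        simp [Matrix.toLin'_mul]
      map_zero' := by
        ext x
        simp
      map_add' := by
        intro a b
        ext x
        simp [Matrix.add_mulVec] }
  let _ : Module ↥K W := Module.compHom W φ
  have hsmul : ∀ (l : ↥K) (v : W), ((l • v : W) : ι → F) = l.1 *ᵥ (v : ι → F) := fun l v => by
    change ((φ l) v : ι → F) = _
    simp [φ]
  have : IsScalarTower F ↥K W := ⟨fun c l v => by
    apply Subtype.ext
    rw [hsmul, Submodule.coe_smul, hsmul]
    change (c • l.1) *ᵥ (v : ι → F) = _
    rw [Matrix.smul_mulVec]⟩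
  have h := Module.finrank_mul_finrank F ↥K W
  rw [hK.finrank_eq] at h
  exact Dvd.intro _ h

end Cfsg.Agent.Lib.Helper60.O10
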